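/-
The centraliser of a reflection: blocks on an orbit of ten lines, and coset words.
-/
import Mathlib.GroupTheory.Perm.Fin

set_option autoImplicit false

namespace Cfsg.Agent.H15.J2

def tenPts : List Nat := [305, 312, 306, 311, 307, 310, 308, 309, 313, 314]

def letterSig : Nat → Equiv.Perm (Fin 5)
  | 0 => 1
  | 1 => 1
  | 4 => Equiv.swap 0 3 * Equiv.swap 1 2
  | 5 => 1
  | 6 => Equiv.swap 0 3 * Equiv.swap 1 2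
  | 7 => Equiv.swap 0 1 * Equiv.swap 2 3
  | 8 => Equiv.swap 1 3 * Equiv.swap 2 3
  | 9 => Equiv.swap 0 2 * Equiv.swap 1 2
  | 10 => 1
  | 11 => 1
  | 12 => Equiv.swap 0 2 * Equiv.swap 1 2 * Equiv.swap 2 3 * Equiv.swap 3 4
  | _ => 1

def kerWords : List (List Nat) := [
  [],
  [0],
  [1],
  [5],
  [10],
  [11],
  [1, 0],
  [5, 0],
  [10, 0],
  [11, 0],
  [5, 1],
  [10, 1],
  [11, 1],
  [6, 4],
  [4, 6],
  [1, 10],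
  [1, 11],
  [5, 1, 0],
  [6, 4, 0],
  [4, 6, 0],
  [6, 5, 4],
  [5, 6, 4],
  [10, 6, 4],
  [11, 6, 4],
  [4, 11, 4],
  [6, 4, 5],
  [5, 4, 6],
  [11, 4, 6],
  [6, 11, 6],
  [4, 6, 11],
  [11, 6, 4, 0],
  [4, 11, 4, 0]]

def imgWords : List (List Nat) := [
  [],
  [4],
  [7],
  [8],
  [9],
  [12],
  [7, 4],
  [8, 4],
  [9, 4],
  [12, 4],
  [8, 7],
  [9, 7],
  [12, 7],
  [7, 8],
  [12, 8],
  [4, 9],
  [12, 9],
  [4, 12],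
  [7, 12],
  [8, 12],
  [9, 12],
  [12, 12],
  [12, 7, 4],
  [12, 8, 4],
  [12, 9, 4],
  [4, 12, 4],
  [7, 12, 4],
  [8, 12, 4],
  [9, 12, 4],
  [12, 12, 4],
  [12, 8, 7],
  [12, 9, 7],
  [4, 12, 7],
  [7, 12, 7],
  [8, 12, 7],
  [9, 12, 7],
  [12, 12, 7],
  [12, 7, 8],
  [4, 12, 8],
  [7, 12, 8],
  [8, 12, 8],
  [12, 4, 9],
  [4, 12, 9],
  [8, 12, 9],
  [7, 4, 12],
  [12, 4, 12],
  [9, 7, 12],
  [12, 9, 12],
  [12, 12, 12],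
  [4, 12, 7, 4],
  [7, 12, 7, 4],
  [8, 12, 7, 4],
  [12, 12, 7, 4],
  [8, 12, 8, 4],
  [8, 12, 9, 4],
  [7, 4, 12, 4],
  [12, 4, 12, 4],
  [9, 7, 12, 4],
  [4, 12, 9, 7],
  [12, 12, 12, 7]]

end Cfsg.Agent.H15.J2
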